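import Cfsg.Agent.H493.L16.Nn

/-!
# S5916, box NN (helper493): rational families of type `(i, i + 2)`

`NN_leQ` : `NN ρ n` is spanned by vectors of families, those of type `(i, i + 2)` rational (`Rat2`, the condition `RAT` of
helper955).
-/

set_option autoImplicit false
set_option maxRecDepth 100000
set_option linter.unusedSectionVars false

namespace Cfsg.Agent.H493.L16

open Matrix Cfsg Cfsg.Lie
open Cfsg.Agent.H939.L64 (KK E2 LK em aK rE fr brK)
open Cfsg.Agent.H943.SL2Rel Cfsg.Agent.H943.RepAdd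
open Cfsg.Agent.H280.L16 (PDat Fam1 Fam2 Fam3)
open Cfsg.Agent.H939.L16 (Simp NN MinF FamV)

variable {F : Type} [Field F] [Fintype F]

/-- rationality, types `(i, i + 2)` -/
def Rat2 (Fp : LK → LK) (w : Fin 2 → Fin 2 → LK) : Prop := ∀ a c, Fp (Fp (w a c)) = w (1 - c) a

/-- the vectors of the families with `n` exponents, the families of type `(i, i + 2)` rational -/
def FamQ (Fp : LK → LK) (P : SpecialLinearGroup (Fin 2) F →* Matrix (Fin 2) (Fin 2) KK)
    (ρ : Representation KK (SpecialLinearGroup (Fin 2) F) LK) (n : ℕ) : Set LK :=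
  {v | (n = 1 ∧ ∃ i < 4, ∃ w, Fam1 P ρ i w ∧ ∃ a, v = w a) ∨
    (n = 2 ∧ ∃ i j, i < j ∧ j < 4 ∧ ∃ w, Fam2 P ρ i j w ∧ (j = i + 2 → Rat2 Fp w) ∧ ∃ a b, v = w a b) ∨
    (n = 3 ∧ ∃ i j l, i < j ∧ j < l ∧ l < 4 ∧ ∃ w, Fam3 P ρ i j l w ∧ ∃ a b c, v = w a b c)}

theorem famQ_sub (Fp : LK → LK) (P : SpecialLinearGroup (Fin 2) F →* Matrix (Fin 2) (Fin 2) KK)
    (ρ : Representation KK (SpecialLinearGroup (Fin 2) F) LK) (n : ℕ) : FamQ Fp P ρ n ⊆ FamV P ρ n := by
  rintro v (⟨rfl, i, hi, w, hw, a, rfl⟩ | ⟨rfl, i, j, hij, hj, w, hw, -, a, b, rfl⟩ |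
    ⟨rfl, i, j, l, hij, hjl, hl, w, hw, a, b, c, rfl⟩)
  · exact Or.inl ⟨rfl, i, hi, w, hw, a, rfl⟩
  · exact Or.inr (Or.inl ⟨rfl, i, j, hij, hj, w, hw, a, b, rfl⟩)
  · exact Or.inr (Or.inr ⟨rfl, i, j, l, hij, hjl, hl, w, hw, a, b, c, rfl⟩)

section dat

variable [DecidableEq F] {ι : F →+* KK} {P : SpecialLinearGroup (Fin 2) F →* Matrix (Fin 2) (Fin 2) KK}
  {y t0 : SpecialLinearGroup (Fin 2) F} {ζ : KK} (D : PDat ι P y t0 ζ)
  {ρ : Representation KK (SpecialLinearGroup (Fin 2) F) LK} {Fp : LK → LK}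

/-- the space of the families -/
def WF (P : SpecialLinearGroup (Fin 2) F →* Matrix (Fin 2) (Fin 2) KK)
    (ρ : Representation KK (SpecialLinearGroup (Fin 2) F) LK) (i j : ℕ) : Submodule KK (Fin 2 → Fin 2 → LK) where
  carrier := {w | Fam2 P ρ i j w}
  add_mem' := fun {w w'} h h' s a c => by
    rw [Pi.add_apply, Pi.add_apply, map_add, h s a c, h' s a c, ← Finset.sum_add_distrib]
    refine Finset.sum_congr rfl fun b _ => ?_
    rw [← Finset.sum_add_distrib]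
    exact Finset.sum_congr rfl fun d _ => (smul_add _ _ _).symm
  zero_mem' := fun s a c => by simp
  smul_mem' := fun t w h s a c => by
    rw [Pi.smul_apply, Pi.smul_apply, map_smul, h s a c, Finset.smul_sum]
    refine Finset.sum_congr rfl fun b _ => ?_
    rw [Finset.smul_sum]
    exact Finset.sum_congr rfl fun d _ => by rw [Pi.smul_apply, Pi.smul_apply, smul_comm]

include D in
theorem fam2_rot (hadd : ∀ u v, Fp (u + v) = Fp u + Fp v) (hsmul : ∀ (c : KK) u, Fp (c • u) = c ^ 2 • Fp u)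
    (h : ∀ s v, Fp (ρ s v) = ρ s (Fp v)) {i : ℕ} {w : Fin 2 → Fin 2 → LK} (hw : Fam2 P ρ i (i + 2) w) :
    Fam2 P ρ i (i + 2) fun a c => Fp (Fp (w c (1 - a))) := by
  intro s a c
  change ρ s (Fp (Fp (w c (1 - a)))) = ∑ b, ∑ d, ((P s b a) ^ 2 ^ i * (P s d c) ^ 2 ^ (i + 2)) • Fp (Fp (w d (1 - b)))
  have e1 : ∀ b, ((P s b c) ^ 2 ^ i) ^ 4 = (P s b c) ^ 2 ^ (i + 2) := by
    intro b
    rw [← pow_mul, pow_add 2 i 2]
    norm_num
  have e2 : ∀ d, ((P s d (1 - a)) ^ 2 ^ (i + 2)) ^ 4 = (P s (1 - d) a) ^ 2 ^ i := by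
    intro d
    have h16 := D.fr s d (1 - a)
    rw [sub_sub_cancel] at h16
    rw [← h16, ← pow_mul, ← pow_mul]
    congr 1
    ring
  rw [← h, ← h, hw s c (1 - a)]
  simp only [Fin.sum_univ_two]
  simp only [hadd, hsmul, ← pow_mul]
  have e3 : ∀ x y : KK, (x * y) ^ (2 * 2) = x ^ 4 * y ^ 4 := fun x y => by rw [mul_pow]
  simp only [e3, e1, e2, sub_zero, sub_self]
  have e4 : ∀ x y : KK, x * y = y * x := mul_comm
  rw [e4 (P s 0 c ^ 2 ^ (i + 2)), e4 (P s 0 c ^ 2 ^ (i + 2)), e4 (P s 1 c ^ 2 ^ (i + 2)), e4 (P s 1 c ^ 2 ^ (i + 2))]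
  abel

include D in
/-- **(f)** -/
theorem famV_sub_span (hadd : ∀ u v, Fp (u + v) = Fp u + Fp v) (hsmul : ∀ (c : KK) u, Fp (c • u) = c ^ 2 • Fp u)
    (hinj : Function.Injective Fp) (h : ∀ s v, Fp (ρ s v) = ρ s (Fp v)) (n : ℕ) :
    FamV P ρ n ⊆ Submodule.span KK (FamQ Fp P ρ n) := by
  rintro v (⟨rfl, i, hi, w, hw, a, rfl⟩ | ⟨rfl, i, j, hij, hj, w, hw, a, b, rfl⟩ |
    ⟨rfl, i, j, l, hij, hjl, hl, w, hw, a, b, c, rfl⟩)
  · exact Submodule.subset_span (Or.inl ⟨rfl, i, hi, w, hw, a, rfl⟩)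
  · by_cases hji : j = i + 2
    · subst hji
      let φ : WF P ρ i (i + 2) →ₛₗ[iterateFrobenius KK 2 2] WF P ρ i (i + 2) :=
        { toFun := fun w => ⟨fun a c => Fp (Fp (w.1 c (1 - a))), fam2_rot D hadd hsmul h w.2⟩
          map_add' := fun w w' => by
            apply Subtype.ext
            funext a c
            change Fp (Fp (w.1 c (1 - a) + w'.1 c (1 - a))) = Fp (Fp (w.1 c (1 - a))) + Fp (Fp (w'.1 c (1 - a)))
            rw [hadd, hadd]
          map_smul' := fun t w => by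
            apply Subtype.ext
            funext a c
            change Fp (Fp (t • w.1 c (1 - a))) = (iterateFrobenius KK 2 2 t) • Fp (Fp (w.1 c (1 - a)))
            rw [hsmul, hsmul, iterateFrobenius_def, ← pow_mul]
            rfl }
      have hφ : Function.Injective φ := by
        intro w w' hww
        apply Subtype.ext
        funext a c
        have h1 := congrFun (congrFun (congrArg Subtype.val hww) (1 - c)) a
        change Fp (Fp (w.1 a (1 - (1 - c)))) = Fp (Fp (w'.1 a (1 - (1 - c)))) at h1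
        rw [sub_sub_cancel] at h1
        exact hinj (hinj h1)
      have hsp := Cfsg.Agent.H192.span_fixed 2 2 (by norm_num) φ hφ
      let ev : WF P ρ i (i + 2) →ₗ[KK] LK :=
        { toFun := fun w => w.1 a b
          map_add' := fun _ _ => rfl
          map_smul' := fun _ _ => rfl }
      have h1 : (⟨w, hw⟩ : WF P ρ i (i + 2)) ∈ Submodule.span KK {w | φ w = w} := by rw [hsp]; trivial
      have h2 : ev ⟨w, hw⟩ ∈ (Submodule.span KK {w | φ w = w}).map ev := ⟨_, h1, rfl⟩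
      rw [Submodule.map_span] at h2
      refine Submodule.span_mono ?_ h2
      rintro _ ⟨w', hw', rfl⟩
      refine Or.inr (Or.inl ⟨rfl, i, i + 2, hij, hj, w'.1, w'.2, fun _ a c => ?_, a, b, rfl⟩)
      have h3 := congrFun (congrFun (congrArg Subtype.val (show φ w' = w' from hw')) (1 - c)) a
      change Fp (Fp (w'.1 a (1 - (1 - c)))) = w'.1 (1 - c) a at h3
      rwa [sub_sub_cancel] at h3
    · exact Submodule.subset_span (Or.inr (Or.inl ⟨rfl, i, j, hij, hj, w, hw, fun h => absurd h hji, a, b, rfl⟩))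
  · exact Submodule.subset_span (Or.inr (Or.inr ⟨rfl, i, j, l, hij, hjl, hl, w, hw, a, b, c, rfl⟩))

include D in
/-- **`NN ρ n` is spanned by vectors of families, those of type `(i, i + 2)` rational** -/
theorem NN_leQ (hadd : ∀ u v, Fp (u + v) = Fp u + Fp v) (hsmul : ∀ (c : KK) u, Fp (c • u) = c ^ 2 • Fp u)
    (hinj : Function.Injective Fp) (h : ∀ s v, Fp (ρ s v) = ρ s (Fp v)) {n : ℕ} (hn : n = 1 ∨ n = 2 ∨ n = 3) :
    NN ρ n ≤ Submodule.span KK (FamQ Fp P ρ n ∩ (NN ρ n : Set LK)) := by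
  rw [Set.inter_eq_left.2 ((famQ_sub Fp P ρ n).trans (famV_le D n)), NN_eq D hn]
  exact Submodule.span_le.2 (famV_sub_span D hadd hsmul hinj h n)

end dat

end Cfsg.Agent.H493.L16
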